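import Cfsg.Agent.Chev.UniqueSt.Hecke
import Cfsg.Agent.Chev.SteinbergModule
import Cfsg.Agent.Chev.SL2Hom
import Cfsg.Agent.Chev.WeylCombi

/-!
# An irreducible character of a Chevalley group that is regular on `U` is determined
-/

set_option autoImplicit false
set_option linter.unusedSectionVars false

namespace CfsgLib.Chev.Sys

open Cfsg Cfsg.Lie CfsgLib.StUnique
open scoped ComplexConjugate

universe u

variable {D : ChevalleyDatum} (S : Sys.{u} D) (F : Type u) [Field F]

/-- The torus of a fundamental root inside the group. -/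
noncomputable def etaG (q : ℕ) (hq : q < D.rank) : Fˣ →* D.group F where
  toFun a := ⟨S.dg (hz D (D.simple q) a), S.diag_le_group (S.dg_mem_diag (S.simple_lt hq) a)⟩
  map_one' := Subtype.ext (by
    show S.dg (hz D (D.simple q) (1 : Fˣ)) = 1
    rw [show hz D (D.simple q) (1 : Fˣ) = (1 : ℕ → Fˣ) from funext fun i => by simp [hz], ← dgHom_apply, map_one])
  map_mul' a b := Subtype.ext (by
    show S.dg (hz D (D.simple q) (a * b)) = S.dg (hz D (D.simple q) a) * S.dg (hz D (D.simple q) b)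
    rw [hz_mul, dg_mul])

/-- A word as an element of the group. -/
noncomputable def nL (L : List ℕ) : D.group F := (L.map (S.nG F)).prod

variable {F}

theorem coe_nL (L : List ℕ) : ((S.nL F L : D.group F) : GL D.Idx F) = S.nw F L := by
  induction L with
  | nil => rfl
  | cons q L ih =>
    rw [nL, List.map_cons, List.prod_cons, Subgroup.coe_mul, ← nL, ih, coe_nG, nw_cons]

theorem nL_snoc (L : List ℕ) (q : ℕ) : S.nL F (L ++ [q]) = S.nL F L * S.nG F q := by
  simp [nL]

theorem nU_conj_upSub_inv {q : ℕ} (hq : q < D.rank) {g : GL D.Idx F} (hg : g ∈ S.upSub F q) :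
    (S.nU (D.simple q) 1)⁻¹ * g * S.nU (D.simple q) 1 ∈ S.upSub F q := by
  have h := S.diag_conj_genBy _ (S.dg_mem_diag (S.simple_lt hq) (-1 : Fˣ)) (S.nU_conj_upSub hq hg)
  have e := S.nU_inv_simple (F := F) hq
  set d := S.dg (hz D (D.simple q) (-1 : Fˣ))
  set n := S.nU (D.simple q) (1 : F)
  have e' : n⁻¹ * g * n = d * (n * g * n⁻¹) * d⁻¹ := by
    conv_lhs => rw [show n = (n⁻¹)⁻¹ from (inv_inv n).symm]
    rw [inv_inv, e]
    have : n = (d * n)⁻¹ := by rw [← e, inv_inv]
    conv_lhs => arg 2; rw [this]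
    group
  rw [e']
  exact h

theorem neg_simple_hz {q : ℕ} (hq : q < D.rank) (a : Fˣ) :
    S.dg (hz D (D.neg (D.simple q)) a) = S.dg (hz D (D.simple q) a⁻¹) := by
  refine S.dg_congr fun i hi => ?_
  show a ^ cr D (D.neg (D.simple q)) i = a⁻¹ ^ cr D (D.simple q) i
  rw [inv_zpow', cr, cr, ← Finset.sum_neg_distrib]
  congr 1
  exact Finset.sum_congr rfl fun j hj => by
    rw [S.cor_neg _ (S.simple_lt hq) j (Finset.mem_range.1 hj), neg_mul]

variable [Fintype F] [DecidableEq F] [Fintype (D.group F)] [DecidableEq (D.group F)] [Fintype (UG F S)]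
variable (χ : IrrCharacter (D.group F))

theorem mem_UG {g : D.group F} : g ∈ UG F S ↔ (g : GL D.Idx F) ∈ D.posUnipotent F :=
  Subgroup.mem_subgroupOf

theorem diag_norm_UG {h : D.group F} (hh : (h : GL D.Idx F) ∈ D.diagonalSubgroup F) :
    ∀ u ∈ UG F S, h * u * h⁻¹ ∈ UG F S := fun u hu => by
  rw [S.mem_UG] at hu ⊢
  push_cast
  exact S.diag_conj_pos hh hu

theorem dT_step_mul {M : List ℕ} (hM : ∀ x ∈ M, x < D.rank) {q : ℕ} (hq : q < D.rank)
    (hpos : S.Pos (S.wprod M (S.sr ⟨q, hq⟩))) :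
    dT χ (UG F S) (S.nL F M) * dT χ (UG F S) (S.nG F q) = dT χ (UG F S) (S.nL F (M ++ [q])) := by
  rw [S.nL_snoc]
  refine dT_mul χ (UG F S) fun u hu => ?_
  obtain ⟨a, ha, t, e⟩ := S.exists_up_split hq ((Subgroup.inv_mem_iff _).2 (S.mem_UG.1 hu))
  obtain ⟨c, hc⟩ := S.acts_nw (F := F) hM ⟨D.simple q, S.simple_lt hq⟩
  have hxU : S.nw F M * S.xU (D.simple q) (-t) * (S.nw F M)⁻¹ ∈ D.posUnipotent F := by
    rw [hc]
    exact S.xU_mem_posUnipotent hpos (Fin.is_lt _) _
  have hbU : (S.nU (D.simple q) (1 : F))⁻¹ * a⁻¹ * S.nU (D.simple q) 1 ∈ D.posUnipotent F :=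
    S.genBy_le_pos _ (S.nU_conj_upSub_inv hq (inv_mem ha))
  refine ⟨⟨_, S.pos_le_group hxU⟩, S.mem_UG.2 hxU, ⟨_, S.pos_le_group hbU⟩, S.mem_UG.2 hbU, Subtype.ext ?_⟩
  push_cast
  rw [coe_nL, coe_nG, show (u : GL D.Idx F) = S.xU (D.simple q) (-t) * a⁻¹ by
    rw [← S.xU_inv, ← _root_.mul_inv_rev, ← e, inv_inv]]
  group

/-- The rank one step. -/
noncomputable def step {q : ℕ} (hq : q < D.rank) : Step χ (UG F S) (S.nG F q) Fˣ where
  η := S.etaG F q hq
  z := -1
  norm_mem a := S.diag_norm_UG (S.dg_mem_diag (S.simple_lt hq) a)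
  swap a := Subtype.ext (by
    show S.nU (D.simple q) 1 * S.dg (hz D (D.simple q) a) = S.dg (hz D (D.simple q) a⁻¹) * S.nU (D.simple q) 1
    rw [S.nU_dg hq, ← S.neg_simple_hz hq a]
    congr 1
    refine S.dg_congr fun i hi => ?_
    rw [S.tw_hz hq (S.simple_lt hq) a hi, S.pi_simple q hq])
  inv_eq := Subtype.ext (S.nU_inv_simple hq)
  quad := by
    classical
    set n := S.nG F q with hn
    let f : D.group F → Matrix (D.group F) (D.group F) ℂ := fun u => dT χ (UG F S) (n * u * n⁻¹)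
    let x : F → D.group F := fun t => ⟨S.xU (D.simple q) t, S.xU_mem_group _ _⟩
    have hxU : ∀ t, x t ∈ (UG F S) := fun t => S.xSG_mem_U hq t
    -- the product is an average over `(UG F S)`
    have hprod : dT χ (UG F S) n * dT χ (UG F S) n⁻¹ = (Fintype.card (UG F S) : ℂ)⁻¹ • ∑ u : (UG F S), f u := by
      have e : dT χ (UG F S) n * dT χ (UG F S) n⁻¹ = eU χ (UG F S) * (rep χ n * eU χ (UG F S) * rep χ n⁻¹) * eU χ (UG F S) := by
        simp only [dT, Matrix.mul_assoc]
        rw [← Matrix.mul_assoc (eU χ (UG F S)) (eU χ (UG F S)), eU_mul_self]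
      rw [e]
      conv_lhs => enter [1, 2, 1, 2]; rw [eU]
      rw [Matrix.mul_smul, Matrix.smul_mul, Finset.mul_sum, Finset.sum_mul, Matrix.mul_smul, Matrix.smul_mul,
        Finset.mul_sum, Finset.sum_mul]
      congr 1
      exact Finset.sum_congr rfl fun u _ => by rw [rep_mul, rep_mul]; rfl
    have hfU : ∀ a : D.group F, (a : GL D.Idx F) ∈ S.upSub F q → ∀ g, f (a * g) = f g := by
      intro a ha g
      show dT χ (UG F S) (n * (a * g) * n⁻¹) = dT χ (UG F S) (n * g * n⁻¹)
      rw [show n * (a * g) * n⁻¹ = n * a * n⁻¹ * (n * g * n⁻¹) by group]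
      refine dT_left χ (UG F S) (S.mem_UG.2 ?_) _
      push_cast
      exact S.genBy_le_pos _ (S.nU_conj_upSub hq ha)
    have hxx : ∀ s t, x s * x t = x (s + t) := fun s t => Subtype.ext (S.xU_add _ _ _)
    have hfib : ∀ u : (UG F S), ∑ t : F, f ((u : D.group F) * x t) = ∑ t : F, f (x t) := by
      intro u
      obtain ⟨a, ha, s, e⟩ := S.exists_up_split hq (S.mem_UG.1 u.2)
      have e' : (u : D.group F) = ⟨a, S.pos_le_group (S.genBy_le_pos _ ha)⟩ * x s := Subtype.ext e
      refine Fintype.sum_equiv (Equiv.addLeft s) _ _ fun t => ?_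
      rw [e', mul_assoc, hxx, hfU _ ha]
      rfl
    have havg : (Fintype.card F : ℂ) • ∑ u : (UG F S), f u = (Fintype.card (UG F S) : ℂ) • ∑ t : F, f (x t) := by
      have h1 : ∀ t : F, ∑ u : (UG F S), f ((u : D.group F) * x t) = ∑ u : (UG F S), f u := fun t =>
        Fintype.sum_equiv (Equiv.mulRight (⟨x t, hxU t⟩ : (UG F S))) _ _ fun u => rfl
      have h2 := Finset.sum_comm (s := (Finset.univ : Finset (UG F S))) (t := (Finset.univ : Finset F))
        (f := fun u t => f ((u : D.group F) * x t))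
      rw [Finset.sum_congr rfl fun u _ => hfib u, Finset.sum_congr rfl fun t _ => h1 t,
        Finset.sum_const, Finset.sum_const, Finset.card_univ, Finset.card_univ, ← Nat.cast_smul_eq_nsmul ℂ,
        ← Nat.cast_smul_eq_nsmul ℂ] at h2
      exact h2.symm
    have h0 : f (x 0) = eU χ (UG F S) := by
      show dT χ (UG F S) _ = _
      rw [show x 0 = 1 from Subtype.ext (S.xU_zero _), mul_one, mul_inv_cancel, dT_one]
    have ht : ∀ t : Fˣ, f (x t) = rep χ (S.etaG F q hq t⁻¹) * dT χ (UG F S) n := by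
      intro t
      show dT χ (UG F S) _ = _
      have e : n * x t * n⁻¹ = x (-(t : F))⁻¹ * (S.etaG F q hq t⁻¹ * n) * x (-(t : F))⁻¹ := by
        refine Subtype.ext ?_
        push_cast
        show S.nU (D.simple q) 1 * S.xU (D.simple q) (t : F) * (S.nU (D.simple q) 1)⁻¹ =
          S.xU (D.simple q) (-(t : F))⁻¹ * (S.dg (hz D (D.simple q) t⁻¹) * S.nU (D.simple q) 1) *
            S.xU (D.simple q) (-(t : F))⁻¹
        rw [S.nU_conj_xp hq, S.xU_neg_split _ (neg_ne_zero.2 t.ne_zero), ← S.nU_simple hq]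
        congr 3
        rw [inv_neg, _root_.neg_neg, Units.val_inv_eq_inv_val]
      rw [e, dT_right χ (UG F S) (hxU _), dT_left χ (UG F S) (hxU _),
        dT_torus_left χ (UG F S) (S.diag_norm_UG (S.dg_mem_diag (S.simple_lt hq) _))]
    have hsplit : ∑ t : F, f (x t) = eU χ (UG F S) + ∑ a : Fˣ, rep χ (S.etaG F q hq a) * dT χ (UG F S) n := by
      rw [← Finset.add_sum_erase _ _ (Finset.mem_univ (0 : F)), h0]
      congr 1
      rw [← Equiv.sum_comp (Equiv.inv Fˣ) (fun a => rep χ (S.etaG F q hq a) * dT χ (UG F S) n)]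
      symm
      refine Finset.sum_bij (fun (a : Fˣ) _ => (a : F)) (fun a _ => by simp) (fun a _ b _ e => Units.ext e)
        (fun b hb => ⟨Units.mk0 b (Finset.ne_of_mem_erase hb), Finset.mem_univ _, rfl⟩) fun a _ => (ht a).symm
    have hU0 : (Fintype.card (UG F S) : ℂ) ≠ 0 := Nat.cast_ne_zero.2 Fintype.card_ne_zero
    have hF0 : (Fintype.card F : ℂ) ≠ 0 := Nat.cast_ne_zero.2 Fintype.card_ne_zero
    have hcF : Fintype.card Fˣ + 1 = Fintype.card F := by
      rw [Fintype.card_units]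
      have := Fintype.card_pos (α := F)
      omega
    rw [hprod, hcF, ← hsplit, ← inv_smul_smul₀ hF0 (∑ u : (UG F S), f u), havg, smul_smul, smul_smul]
    congr 1
    field_simp

theorem card_units_succ : Fintype.card Fˣ + 1 = Fintype.card F := by
  rw [Fintype.card_units]
  have := Fintype.card_pos (α := F)
  omega

theorem snoc_pos {M : List ℕ} {q : ℕ} (hM : ∀ x ∈ M, x < D.rank) (hq : q < D.rank)
    (h : (M ++ [q]).length = wlen (S.wprod (M ++ [q]))) :
    M.length = wlen (S.wprod M) ∧ S.Pos (S.wprod M (S.sr ⟨q, hq⟩)) := by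
  have hs : S.wprod [q] = S.refl q := by simp [wprod]
  rw [wprod_append, hs, List.length_append, List.length_singleton] at h
  have hle := S.wlen_wprod_le hM
  by_cases hp : S.Pos (S.wprod M (S.sr ⟨q, hq⟩))
  · rw [S.wlen_mul_refl_of_pos (S.wprod_mem_weyl M) (i := ⟨q, hq⟩) hp] at h
    exact ⟨by omega, hp⟩
  · have := S.wlen_mul_refl_of_neg (S.wprod_mem_weyl M) (i := ⟨q, hq⟩) hp
    simp only at this
    omega

/-- The lower bound along a reduced word. -/
theorem bound_word (L : List ℕ) (hL : ∀ x ∈ L, x < D.rank) (h : L.length = wlen (S.wprod L)) :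
    ((((Fintype.card F : ℕ) : ℝ) ^ 2)⁻¹) ^ L.length * nrm (eU χ (UG F S)) ≤
      nrm (dT χ (UG F S) (S.nL F L)) := by
  induction L using List.reverseRecOn with
  | nil => simp [nL, dT_one]
  | append_singleton M q ih =>
    have hq : q < D.rank := hL q (by simp)
    have hM : ∀ x ∈ M, x < D.rank := fun x hx => hL x (by simp [hx])
    obtain ⟨h1, h2⟩ := S.snoc_pos hM hq h
    have hb := ((S.step χ hq).bound (dT_mul_eU χ (UG F S) (S.nL F M))).1
    rw [card_units_succ, S.dT_step_mul χ hM hq h2] at hb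
    refine le_trans ?_ hb
    rw [List.length_append, List.length_singleton, pow_succ', mul_assoc]
    exact mul_le_mul_of_nonneg_left (ih hM h1) (by positivity)

/-- The value along a reduced word in the case of equality at the letters. -/
theorem word_eq (hs : ∀ q, q < D.rank →
      dT χ (UG F S) (S.nG F q) = (-(Fintype.card F : ℂ)⁻¹) • eU χ (UG F S))
    (L : List ℕ) (hL : ∀ x ∈ L, x < D.rank) (h : L.length = wlen (S.wprod L)) :
    dT χ (UG F S) (S.nL F L) = ((-(Fintype.card F : ℂ)⁻¹) ^ L.length) • eU χ (UG F S) := by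
  induction L using List.reverseRecOn with
  | nil => simp [nL, dT_one]
  | append_singleton M q ih =>
    have hq : q < D.rank := hL q (by simp)
    have hM : ∀ x ∈ M, x < D.rank := fun x hx => hL x (by simp [hx])
    obtain ⟨h1, h2⟩ := S.snoc_pos hM hq h
    rw [← S.dT_step_mul χ hM hq h2, ih hM h1, hs q hq, Matrix.smul_mul, Matrix.mul_smul, eU_mul_self,
      smul_smul, List.length_append, List.length_singleton, pow_succ]

theorem nrm_eU (hU : ∑ u : UG F S, (χ : D.group F → ℂ) (u : D.group F) = (χ : D.group F → ℂ) 1) :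
    nrm (eU χ (UG F S)) = (charDegree (χ : D.group F → ℂ) : ℝ) ^ 2 / Fintype.card (UG F S) ∧
      0 < nrm (eU χ (UG F S)) := by
  have h : nrm (eU χ (UG F S)) = (charDegree (χ : D.group F → ℂ) : ℝ) ^ 2 / Fintype.card (UG F S) := by
    rw [nrm, eU_star, eU_mul_self, trace_eU χ _ hU,
      CfsgLib.CharBasics.apply_one (CfsgLib.CharBasics.isCharacter_of_irr χ.2),
      show ((charDegree (χ : D.group F → ℂ) : ℂ) * (charDegree (χ : D.group F → ℂ)) / (Fintype.card (UG F S) : ℂ)) =
        (((charDegree (χ : D.group F → ℂ) : ℝ) ^ 2 / Fintype.card (UG F S) : ℝ) : ℂ) by push_cast; ring,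
      Complex.ofReal_re]
  refine ⟨h, h ▸ div_pos (pow_pos ?_ 2) (Nat.cast_pos.2 Fintype.card_pos)⟩
  exact_mod_cast CfsgLib.CharBasics.charDegree_pos χ.2

/-- The total squared norm of the double coset operators. -/
theorem sum_nrm (hU : ∑ u : UG F S, (χ : D.group F → ℂ) (u : D.group F) = (χ : D.group F → ℂ) 1) :
    ∑ g : D.group F, nrm (dT χ (UG F S) g) =
      (Nat.card (D.group F) : ℝ) * ((charDegree (χ : D.group F → ℂ) : ℝ) ^ 2 / (Fintype.card (UG F S) : ℝ) ^ 2) := by
  set d := (χ : D.group F → ℂ) 1 with hd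
  have hd0 : d ≠ 0 := by
    rw [hd, CfsgLib.CharBasics.apply_one (CfsgLib.CharBasics.isCharacter_of_irr χ.2)]
    exact Nat.cast_ne_zero.2 (CfsgLib.CharBasics.charDegree_pos χ.2).ne'
  have hone : ∀ g, (dT χ (UG F S) g * (dT χ (UG F S) g).conjTranspose).trace =
      ((Fintype.card (UG F S) : ℂ)⁻¹) ^ 2 * ∑ v : (UG F S), ∑ u : (UG F S), d * (χ : D.group F → ℂ) (g * v * g⁻¹ * u) := by
    intro g
    have hcyc : (dT χ (UG F S) g * (dT χ (UG F S) g).conjTranspose) =
        eU χ (UG F S) * (rep χ g * eU χ (UG F S) * rep χ g⁻¹) * eU χ (UG F S) := by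
      rw [dT_star]
      simp only [dT, Matrix.mul_assoc]
      rw [← Matrix.mul_assoc (eU χ (UG F S)) (eU χ (UG F S)), eU_mul_self]
    rw [hcyc, Matrix.trace_mul_cycle, eU_mul_self, Matrix.trace_mul_comm]
    simp only [eU, Matrix.mul_smul, Matrix.smul_mul, Finset.mul_sum, Finset.sum_mul, Matrix.trace_smul,
      Matrix.trace_sum, rep_mul, trace_rep, smul_eq_mul, ← hd]
    simp only [← Finset.mul_sum]
    rw [Finset.sum_comm]
    ring
  have hsum : ∑ g : D.group F, (dT χ (UG F S) g * (dT χ (UG F S) g).conjTranspose).trace =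
      (Nat.card (D.group F) : ℂ) * (d ^ 2 / (Fintype.card (UG F S) : ℂ) ^ 2) := by
    rw [Finset.sum_congr rfl fun g _ => hone g, ← Finset.mul_sum, Finset.sum_comm]
    have h : ∀ v : (UG F S), ∑ g : D.group F, ∑ u : (UG F S), d * (χ : D.group F → ℂ) (g * v * g⁻¹ * u) =
        (Nat.card (D.group F) : ℂ) * (χ : D.group F → ℂ) (v : D.group F) * d := by
      intro v
      rw [Finset.sum_comm]
      simp only [← Finset.mul_sum]
      rw [Finset.mul_sum, Finset.sum_congr rfl fun u _ => by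
          rw [hd, CfsgLib.CharBasics.sum_conj_apply_mul χ.2 (v : D.group F) (u : D.group F)],
        ← Finset.mul_sum, hU]
    rw [Finset.sum_congr rfl fun v _ => h v, ← Finset.sum_mul, ← Finset.mul_sum, hU]
    ring
  simp only [nrm]
  rw [← Complex.re_sum, hsum, hd, CfsgLib.CharBasics.apply_one (CfsgLib.CharBasics.isCharacter_of_irr χ.2),
    show ((Nat.card (D.group F) : ℂ) * ((charDegree (χ : D.group F → ℂ) : ℂ) ^ 2 / (Fintype.card (UG F S) : ℂ) ^ 2)) =
      (((Nat.card (D.group F) : ℝ) * ((charDegree (χ : D.group F → ℂ) : ℝ) ^ 2 / (Fintype.card (UG F S) : ℝ) ^ 2) : ℝ) : ℂ)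
      by push_cast; ring, Complex.ofReal_re]

end CfsgLib.Chev.Sys
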