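import Cfsg.Agent.Chev.UniqueSt.Main
import Cfsg.Agent.Chev.GeoCert
import Cfsg.Agent.Chev.Inst
import Cfsg.Agent.S0914
import Cfsg.Agent.Blocks.RegularRank
import Cfsg.Agent.Blocks.DefectGroup

/-!
# The Steinberg character is the only irreducible character of full `p`-part degree
-/

set_option autoImplicit false

namespace CfsgLib.Chev

open Cfsg

universe u

open CfsgLib.CharBasics in
/-- A character whose degree is divisible by the full `p`-part of the order vanishes at `p`-singular elements. -/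
theorem vanish_of_full {G : Type*} [Group G] [Finite G] (p : ℕ) [Fact p.Prime] (χ : IrrCharacter G)
    (hd : p ^ (Nat.card G).factorization p ∣ charDegree (χ : G → ℂ)) (g : G) (hg : p ∣ orderOf g) :
    (χ : G → ℂ) g = 0 := by
  classical
  haveI := Fintype.ofFinite G
  have hp : p.Prime := Fact.out
  obtain ⟨M, hM⟩ := CfsgLib.Blocks.exists_modular hp
  have hle : (Nat.card G).factorization p ≤ (charDegree (χ : G → ℂ)).factorization p :=
    (hp.pow_dvd_iff_le_factorization (charDegree_pos χ.2).ne').1 hd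
  have hnd : ¬ p ∣ Nat.card G / charDegree (χ : G → ℂ) := by
    intro h
    have hq0 : Nat.card G / charDegree (χ : G → ℂ) ≠ 0 :=
      (Nat.div_pos (Nat.le_of_dvd Nat.card_pos (degree_dvd χ)) (charDegree_pos χ.2)).ne'
    have h1 := hp.factorization_pos_of_dvd hq0 h
    rw [← Nat.mul_div_cancel' (degree_dvd χ),
      Nat.factorization_mul (charDegree_pos χ.2).ne' hq0, Finsupp.add_apply] at hle
    omega
  have hs := (Cfsg.Agent.S0914.result p M hM χ).1 hnd
  have h0 : blockDefect p (blockOf M (χ : G → ℂ)) = 0 := by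
    rw [blockDefect, hs, Set.image_singleton, csInf_singleton, Nat.sub_eq_zero_iff_le]
    exact hle
  exact CfsgLib.Blocks.apply_eq_zero_of_defect_zero hM (CfsgLib.Blocks.isPBlock_blockOf M χ) h0
    (CfsgLib.Blocks.mem_blockOf_self hM χ) hg

/-- The Steinberg character is the only irreducible character of full `p`-part degree (no restriction on the field). -/
theorem eq_steinberg_of_full {F : Type u} [Field F] [Fintype F] (p : ℕ) [Fact p.Prime] [CharP F p] {D : Cfsg.Lie.ChevalleyDatum}
    (hD : D ∈ [Cfsg.Lie.chevG2, Cfsg.Lie.chevB2, Cfsg.Lie.chevD4, Cfsg.Lie.chevF4, Cfsg.Lie.chevE6, Cfsg.Lie.chevE7, Cfsg.Lie.chevE8])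
    (χ : IrrCharacter (D.group F))
    (hdeg : p ^ (Nat.card (D.group F)).factorization p ∣ charDegree (χ : D.group F → ℂ)) :
    (χ : D.group F → ℂ) = D.steinbergCharacter F := by
  classical
  obtain ⟨S⟩ := CfsgLib.Chev.exists_sys hD
  have hG := CfsgLib.Chev.geo_of_mem hD
  have := S.finite_W (F := F)
  haveI := CfsgLib.Chev.Sys.finite_group (D := D) (F := F)
  haveI := Fintype.ofFinite (D.group F)
  haveI := Fintype.ofFinite (CfsgLib.Chev.Sys.UG F S)
  obtain ⟨Φ, hΦ⟩ := S.exists_universal (F := F)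
  obtain ⟨d, hd1, hd2⟩ : ∃ d : ℕ, (χ : D.group F → ℂ) 1 = (d : ℂ) ∧
      p ^ (Nat.card (D.group F)).factorization p ∣ d :=
    ⟨_, CfsgLib.CharBasics.apply_one (CfsgLib.CharBasics.isCharacter_of_irr χ.2), hdeg⟩
  have hsum : ∀ ψ : IrrCharacter (D.group F),
      (∀ g, p ∣ orderOf g → (ψ : D.group F → ℂ) g = 0) →
      ∑ u : CfsgLib.Chev.Sys.UG F S, (ψ : D.group F → ℂ) (u : D.group F) = (ψ : D.group F → ℂ) 1 := by
    intro ψ hv
    refine Finset.sum_eq_single_of_mem (1 : CfsgLib.Chev.Sys.UG F S) (Finset.mem_univ _) fun u _ hu => ?_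
    apply hv
    obtain ⟨e, -, he⟩ := FiniteField.card F p
    have hU : IsPGroup p (CfsgLib.Chev.Sys.UG F S) :=
      IsPGroup.of_card (n := (e : ℕ) * (D.nroots / 2)) (by
        rw [Nat.card_eq_fintype_card, S.card_UG, Nat.card_eq_fintype_card, he, pow_mul])
    obtain ⟨k, hk⟩ := IsPGroup.iff_orderOf.1 hU u
    rw [Subgroup.orderOf_coe, hk]
    refine dvd_pow_self p fun h0 => hu ?_
    rw [← orderOf_eq_one_iff, hk, h0, pow_zero]
  let X : IrrCharacter (D.group F) := χ
  let T : IrrCharacter (D.group F) := ⟨D.steinbergCharacter F, (S.steinberg_main hG).1⟩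
  have hX := hΦ X (hsum X (fun g hg => vanish_of_full p X (by
    have : charDegree (X : D.group F → ℂ) = d := by
      have h := CfsgLib.CharBasics.apply_one (CfsgLib.CharBasics.isCharacter_of_irr X.2)
      rw [show (X : D.group F → ℂ) 1 = (d : ℂ) from hd1] at h
      exact_mod_cast h.symm
    rw [this]; exact hd2) g hg))
  have hT := hΦ T (hsum T (fun g hg => (S.steinberg_main hG).2 p g hg))
  by_contra hne
  have hone := CfsgLib.CharBasics.classInner_self T.2
  have hzero := CfsgLib.CharBasics.classInner_ne X.2 T.2 hne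
  have hX1 : (X : D.group F → ℂ) 1 ≠ 0 := by
    rw [CfsgLib.CharBasics.apply_one (CfsgLib.CharBasics.isCharacter_of_irr X.2)]
    exact Nat.cast_ne_zero.2 (CfsgLib.CharBasics.charDegree_pos X.2).ne'
  have hT1 : (T : D.group F → ℂ) 1 ≠ 0 := by
    rw [CfsgLib.CharBasics.apply_one (CfsgLib.CharBasics.isCharacter_of_irr T.2)]
    exact Nat.cast_ne_zero.2 (CfsgLib.CharBasics.charDegree_pos T.2).ne'
  rw [show (X : D.group F → ℂ) = ((X : D.group F → ℂ) 1 / (T : D.group F → ℂ) 1) • (T : D.group F → ℂ) from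
    funext fun x => by rw [Pi.smul_apply, smul_eq_mul, hX x, hT x]; field_simp,
    CfsgLib.CharBasics.classInner_smul_left, hone, mul_one] at hzero
  exact div_ne_zero hX1 hT1 hzero

end CfsgLib.Chev
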