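import Cfsg.Agent.Chev.UniqueSt.Isotypic

/-!
# Double coset operators on the fixed space of a subgroup

For `e` the projection on the `U`-fixed vectors of the isotypic representation, the operators
`T g = e g e` satisfy a lower bound at a rank one step, attained only in the sign case.
-/

set_option autoImplicit false
set_option linter.unusedSectionVars false

namespace CfsgLib.StUnique

open Matrix Cfsg CfsgLib.CharBasics
open scoped ComplexConjugate

variable {G : Type*} [Group G] [Fintype G] [DecidableEq G] (χ : IrrCharacter G) (U : Subgroup G) [Fintype U]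

/-- The projection on the fixed vectors of `U`. -/
noncomputable def eU : Matrix G G ℂ := (Fintype.card U : ℂ)⁻¹ • ∑ u : U, rep χ (u : G)

/-- The double coset operator. -/
noncomputable def dT (g : G) : Matrix G G ℂ := eU χ U * rep χ g * eU χ U

theorem rep_mul_eU {u : G} (hu : u ∈ U) : rep χ u * eU χ U = eU χ U := by
  rw [eU, Matrix.mul_smul, Finset.mul_sum]
  congr 1
  refine Fintype.sum_equiv (Equiv.mulLeft (⟨u, hu⟩ : U)) _ _ fun v => ?_
  rw [rep_mul]; rfl

theorem eU_mul_rep {u : G} (hu : u ∈ U) : eU χ U * rep χ u = eU χ U := by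
  rw [eU, Matrix.smul_mul, Finset.sum_mul]
  congr 1
  refine Fintype.sum_equiv (Equiv.mulRight (⟨u, hu⟩ : U)) _ _ fun v => ?_
  rw [rep_mul]; rfl

theorem eU_mul_self : eU χ U * eU χ U = eU χ U := by
  conv_lhs => enter [2]; rw [eU]
  rw [Matrix.mul_smul, Finset.mul_sum, Finset.sum_congr rfl fun u _ => eU_mul_rep χ U u.2, Finset.sum_const,
    Finset.card_univ, ← Nat.cast_smul_eq_nsmul ℂ, smul_smul,
    inv_mul_cancel₀ (Nat.cast_ne_zero.2 Fintype.card_ne_zero), one_smul]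

theorem eU_star : (eU χ U)ᴴ = eU χ U := by
  rw [eU, Matrix.conjTranspose_smul, Matrix.conjTranspose_sum, star_inv₀, star_natCast]
  congr 1
  refine Fintype.sum_equiv (Equiv.inv U) _ _ fun u => ?_
  rw [rep_star]; rfl

theorem proj_mul_eU : proj χ * eU χ U = eU χ U := by
  rw [← rep_one, rep_mul_eU χ U (one_mem U)]

theorem eU_mul_proj : eU χ U * proj χ = eU χ U := by
  rw [← rep_one, eU_mul_rep χ U (one_mem U)]

theorem dT_one : dT χ U 1 = eU χ U := by
  rw [dT, rep_one, eU_mul_proj, eU_mul_self]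

theorem dT_star (g : G) : (dT χ U g)ᴴ = dT χ U g⁻¹ := by
  rw [dT, dT, Matrix.conjTranspose_mul, Matrix.conjTranspose_mul, eU_star, rep_star, Matrix.mul_assoc]

theorem eU_mul_dT (g : G) : eU χ U * dT χ U g = dT χ U g := by
  rw [dT, ← Matrix.mul_assoc, ← Matrix.mul_assoc, eU_mul_self]

theorem dT_mul_eU (g : G) : dT χ U g * eU χ U = dT χ U g := by
  rw [dT, Matrix.mul_assoc, eU_mul_self]

theorem dT_left {u : G} (hu : u ∈ U) (g : G) : dT χ U (u * g) = dT χ U g := by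
  rw [dT, dT, ← rep_mul, ← Matrix.mul_assoc (eU χ U), eU_mul_rep χ U hu]

theorem dT_right {u : G} (hu : u ∈ U) (g : G) : dT χ U (g * u) = dT χ U g := by
  rw [dT, dT, ← rep_mul, Matrix.mul_assoc, Matrix.mul_assoc (rep χ g), rep_mul_eU χ U hu, ← Matrix.mul_assoc]

theorem rep_eU_comm {h : G} (hh : ∀ u ∈ U, h * u * h⁻¹ ∈ U) : rep χ h * eU χ U = eU χ U * rep χ h := by
  rw [eU, Matrix.mul_smul, Matrix.smul_mul, Finset.mul_sum, Finset.sum_mul]
  congr 1
  let f : U → U := fun u => ⟨h * u * h⁻¹, hh u u.2⟩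
  have hf : Function.Bijective f := Finite.injective_iff_bijective.1 fun a b e => by
    exact Subtype.ext (mul_left_cancel (mul_right_cancel (congrArg Subtype.val e)))
  refine Fintype.sum_bijective f hf _ _ fun u => ?_
  rw [rep_mul, rep_mul]
  congr 1
  show h * u = h * u * h⁻¹ * h
  group

theorem dT_torus_left {h : G} (hh : ∀ u ∈ U, h * u * h⁻¹ ∈ U) (g : G) :
    dT χ U (h * g) = rep χ h * dT χ U g := by
  rw [dT, dT, ← rep_mul, ← Matrix.mul_assoc (eU χ U), ← rep_eU_comm χ U hh]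
  simp only [Matrix.mul_assoc]

/-- Products along length-additive pairs. -/
theorem dT_mul {g h : G} (hgh : ∀ u ∈ U, ∃ a ∈ U, ∃ b ∈ U, g * u * h = a * (g * h) * b) :
    dT χ U g * dT χ U h = dT χ U (g * h) := by
  have e : dT χ U g * dT χ U h = eU χ U * (rep χ g * eU χ U * rep χ h) * eU χ U := by
    simp only [dT, Matrix.mul_assoc]
    rw [← Matrix.mul_assoc (eU χ U) (eU χ U), eU_mul_self]
  rw [e]
  conv_lhs => enter [1, 2, 1, 2]; rw [eU]
  rw [Matrix.mul_smul, Matrix.smul_mul, Finset.mul_sum, Finset.sum_mul, Matrix.mul_smul, Matrix.smul_mul,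
    Finset.mul_sum, Finset.sum_mul, Finset.sum_congr rfl (g := fun _ => dT χ U (g * h)) fun u _ => by
      obtain ⟨a, ha, b, hb, e⟩ := hgh u u.2
      rw [rep_mul, rep_mul, e]
      show dT χ U (a * (g * h) * b) = _
      rw [dT_right χ U hb, dT_left χ U ha],
    Finset.sum_const, Finset.card_univ, ← Nat.cast_smul_eq_nsmul ℂ, smul_smul,
    inv_mul_cancel₀ (Nat.cast_ne_zero.2 Fintype.card_ne_zero), one_smul]

theorem trace_eU (hU : ∑ u : U, (χ : G → ℂ) (u : G) = (χ : G → ℂ) 1) :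
    (eU χ U).trace = (χ : G → ℂ) 1 * (χ : G → ℂ) 1 / Fintype.card U := by
  simp only [eU, Matrix.trace_smul, Matrix.trace_sum, trace_rep, ← Finset.mul_sum, hU, smul_eq_mul]
  ring

/-- Data of a rank one step: `n` with torus homomorphism `η`. -/
structure Step (n : G) (A : Type*) [CommGroup A] [Fintype A] where
  η : A →* G
  z : A
  norm_mem : ∀ a, ∀ u ∈ U, η a * u * (η a)⁻¹ ∈ U
  swap : ∀ a, n * η a = η a⁻¹ * n
  inv_eq : n⁻¹ = η z * n
  quad : dT χ U n * dT χ U n⁻¹ =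
    ((Fintype.card A + 1 : ℕ) : ℂ)⁻¹ • (eU χ U + ∑ a, rep χ (η a) * dT χ U n)

variable {χ U} {n : G} {A : Type*} [CommGroup A] [Fintype A] (St : Step χ U n A)

/-- The projection on the invariants of the torus image, inside the fixed space. -/
noncomputable def Step.pA : Matrix G G ℂ := ((Fintype.card A : ℂ)⁻¹ • ∑ a, rep χ (St.η a)) * eU χ U

theorem Step.rep_mul_pA (a : A) : rep χ (St.η a) * St.pA = St.pA := by
  rw [Step.pA, ← Matrix.mul_assoc, Matrix.mul_smul, Finset.mul_sum]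
  congr 2
  refine Fintype.sum_equiv (Equiv.mulLeft a) _ _ fun b => ?_
  rw [rep_mul, ← map_mul]; rfl

theorem Step.eU_comm_pA : eU χ U * St.pA = St.pA ∧ St.pA * eU χ U = St.pA := by
  constructor
  · rw [Step.pA, ← Matrix.mul_assoc, Matrix.mul_smul, Finset.mul_sum,
      Finset.sum_congr rfl fun a _ => (rep_eU_comm χ U (St.norm_mem a)).symm, ← Finset.sum_mul,
      Matrix.smul_mul, Matrix.smul_mul, Matrix.mul_assoc, eU_mul_self]
  · rw [Step.pA, Matrix.mul_assoc, eU_mul_self]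

theorem Step.pA_sq : St.pA * St.pA = St.pA := by
  conv_lhs => enter [1]; rw [Step.pA]
  rw [Matrix.mul_assoc, St.eU_comm_pA.1, Matrix.smul_mul, Finset.sum_mul,
    Finset.sum_congr rfl fun a _ => St.rep_mul_pA a, Finset.sum_const, Finset.card_univ,
    ← Nat.cast_smul_eq_nsmul ℂ, smul_smul, inv_mul_cancel₀ (Nat.cast_ne_zero.2 Fintype.card_ne_zero), one_smul]

theorem Step.pA_star : St.pAᴴ = St.pA := by
  rw [Step.pA, Matrix.conjTranspose_mul, Matrix.conjTranspose_smul, Matrix.conjTranspose_sum, star_inv₀,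
    star_natCast, eU_star, Matrix.mul_smul, Matrix.smul_mul, Finset.mul_sum, Finset.sum_mul]
  congr 1
  refine Fintype.sum_equiv (Equiv.inv A) _ _ fun a => ?_
  rw [rep_star, ← map_inv, ← rep_eU_comm χ U (St.norm_mem _)]; rfl

theorem Step.pA_dT : St.pA * dT χ U n = dT χ U n * St.pA := by
  have hl : St.pA * dT χ U n = (Fintype.card A : ℂ)⁻¹ • ∑ a, dT χ U (St.η a * n) := by
    rw [Step.pA, Matrix.mul_assoc, eU_mul_dT, Matrix.smul_mul, Finset.sum_mul]
    congr 1
    exact Finset.sum_congr rfl fun a _ => (dT_torus_left χ U (St.norm_mem a) n).symm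
  have hr : dT χ U n * St.pA = (Fintype.card A : ℂ)⁻¹ • ∑ a, dT χ U (n * St.η a) := by
    rw [Step.pA, Matrix.smul_mul, Matrix.mul_smul, Finset.sum_mul, Finset.mul_sum]
    congr 1
    refine Finset.sum_congr rfl fun a _ => ?_
    simp only [dT, Matrix.mul_assoc, ← rep_mul]
    rw [← Matrix.mul_assoc (eU χ U) (rep χ (St.η a)), ← rep_eU_comm χ U (St.norm_mem a),
      Matrix.mul_assoc (rep χ (St.η a)), eU_mul_self]
  rw [hl, hr]
  congr 1
  exact Fintype.sum_equiv (Equiv.inv A) _ _ fun a => by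
    rw [St.swap, Equiv.inv_apply, inv_inv]

/-- The decomposition of `T Tᴴ - q⁻²`. -/
theorem Step.decomp : ∃ (α β : ℝ) (Q : Matrix G G ℂ), 0 ≤ α ∧ 0 ≤ β ∧
    (2 ≤ Fintype.card A + 1 → 0 < α ∧ 0 < β) ∧ Q * Qᴴ = Q ∧
    dT χ U n * dT χ U n⁻¹ = (((Fintype.card A + 1 : ℕ) : ℂ) ^ 2)⁻¹ • eU χ U +
      (α : ℂ) • (eU χ U - St.pA) + (β : ℂ) • Q ∧
    Q = ((Fintype.card A + 2 : ℕ) : ℂ)⁻¹ •
      (((Fintype.card A + 1 : ℕ) : ℂ) • (dT χ U n * St.pA) + St.pA) := by
  set q : ℂ := ((Fintype.card A + 1 : ℕ) : ℂ) with hq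
  set T := dT χ U n with hT
  set E := St.pA with hE
  have hq0 : q ≠ 0 := Nat.cast_ne_zero.2 (by omega)
  have hq1 : ((Fintype.card A + 2 : ℕ) : ℂ) = q + 1 := by rw [hq]; push_cast; ring
  have hq2 : q + 1 ≠ 0 := hq1 ▸ Nat.cast_ne_zero.2 (by omega)
  have hA : (Fintype.card A : ℂ) = q - 1 := by rw [hq]; push_cast; ring
  have hA0 : (Fintype.card A : ℂ) ≠ 0 := Nat.cast_ne_zero.2 Fintype.card_ne_zero
  have hTe : eU χ U * T = T := eU_mul_dT χ U n
  -- the relation
  have hquad : T * dT χ U n⁻¹ = q⁻¹ • (eU χ U + (q - 1) • (T * E)) := by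
    rw [hT, St.quad, ← hT, ← hq, hE, ← hA, ← St.pA_dT, Step.pA, Matrix.mul_assoc, hTe, Matrix.smul_mul,
      smul_smul, mul_inv_cancel₀ hA0, one_smul, Finset.sum_mul]
  have hTi : dT χ U n⁻¹ = rep χ (St.η St.z) * T := by
    rw [St.inv_eq, dT_torus_left χ U (St.norm_mem _)]
  have hTiE : dT χ U n⁻¹ * E = T * E := by
    rw [hTi, Matrix.mul_assoc, ← St.pA_dT, ← Matrix.mul_assoc, St.rep_mul_pA]
  have hstar : (T * E)ᴴ = T * E := by
    have h : (T * E)ᴴ = E * dT χ U n⁻¹ := by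
      rw [Matrix.conjTranspose_mul, hE, St.pA_star, hT, dT_star]
    have h' : E * dT χ U n⁻¹ = (dT χ U n * E)ᴴ := by rw [← hT, h]
    rw [h, hTi, ← Matrix.mul_assoc]
    have hEz : E * rep χ (St.η St.z) = E := by
      have := congrArg Matrix.conjTranspose (St.rep_mul_pA (St.z)⁻¹)
      rw [Matrix.conjTranspose_mul, St.pA_star, rep_star, map_inv, inv_inv] at this
      exact this
    rw [hEz, hE, St.pA_dT]
  have hsq : T * E * (T * E) = q⁻¹ • E + (1 - q⁻¹) • (T * E) := by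
    have h1 : T * E * (T * E) = T * dT χ U n⁻¹ * E := by
      rw [Matrix.mul_assoc T (dT χ U n⁻¹) E, hTiE, ← Matrix.mul_assoc (T * E), Matrix.mul_assoc T E T, hE,
        St.pA_dT, ← hE, ← Matrix.mul_assoc T T E, Matrix.mul_assoc (T * T), St.pA_sq, Matrix.mul_assoc]
    rw [h1, hquad, Matrix.smul_mul, Matrix.add_mul, hE, St.eU_comm_pA.1, Matrix.smul_mul, Matrix.mul_assoc T,
      St.pA_sq, smul_add, smul_smul, show q⁻¹ * (q - 1) = 1 - q⁻¹ by rw [mul_sub, inv_mul_cancel₀ hq0, mul_one]]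
  refine ⟨(Fintype.card A : ℝ) / ((Fintype.card A + 1 : ℕ) : ℝ) ^ 2,
    ((Fintype.card A + 2 : ℕ) : ℝ) * (Fintype.card A : ℝ) / ((Fintype.card A + 1 : ℕ) : ℝ) ^ 2,
    (q + 1)⁻¹ • (q • (T * E) + E), by positivity, by positivity, fun _ => ?_, ?_, ?_, by rw [hq1]⟩
  · have : 0 < (Fintype.card A : ℝ) := by exact_mod_cast Fintype.card_pos
    constructor <;> positivity
  · have hQ : ((q + 1)⁻¹ • (q • (T * E) + E))ᴴ = (q + 1)⁻¹ • (q • (T * E) + E) := by
      rw [Matrix.conjTranspose_smul, Matrix.conjTranspose_add, Matrix.conjTranspose_smul, hstar, hE, St.pA_star,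
        ← hE, star_inv₀, ← hq1, star_natCast, hq, star_natCast]
    rw [hQ, Matrix.smul_mul, Matrix.mul_smul, smul_smul, Matrix.add_mul, Matrix.mul_add, Matrix.mul_add,
      Matrix.smul_mul, Matrix.smul_mul, Matrix.mul_smul, Matrix.mul_smul, hsq]
    have hEA : E * (T * E) = T * E := by
      rw [← Matrix.mul_assoc, hE, St.pA_dT, Matrix.mul_assoc, St.pA_sq]
    have hAE : T * E * E = T * E := by rw [Matrix.mul_assoc, hE, St.pA_sq]
    rw [hEA, hAE, hE, St.pA_sq]
    match_scalars <;> field_simp <;> ring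
  · rw [hquad]
    push_cast
    rw [hA, show (q - 1 + 1 : ℂ) = q by ring, show (q - 1 + 2 : ℂ) = q + 1 by ring]
    match_scalars <;> field_simp <;> ring

theorem nrm_smul_add {a R : Matrix G G ℂ} (hR : R * Rᴴ = R) :
    (a * R * aᴴ).trace.re = nrm (a * R) := by
  have h2 : Rᴴ = R := by
    conv_lhs => rw [← hR]
    rw [Matrix.conjTranspose_mul, Matrix.conjTranspose_conjTranspose, hR]
  rw [nrm, Matrix.conjTranspose_mul]
  conv_lhs => rw [← hR]
  simp only [Matrix.mul_assoc]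

/-- The lower bound at a step, and the case of equality. -/
theorem Step.bound {c : Matrix G G ℂ} (hc : c * eU χ U = c) :
    (((Fintype.card A + 1 : ℕ) : ℝ) ^ 2)⁻¹ * nrm c ≤ nrm (c * dT χ U n) ∧
    ((((Fintype.card A + 1 : ℕ) : ℝ) ^ 2)⁻¹ * nrm c = nrm (c * dT χ U n) →
      c * St.pA = c ∧ c * dT χ U n = -(((Fintype.card A + 1 : ℕ) : ℂ))⁻¹ • c) := by
  obtain ⟨α, β, Q, hα, hβ, hpos, hQ, hdec, hQe⟩ := St.decomp
  have hR : (eU χ U - St.pA) * (eU χ U - St.pA)ᴴ = eU χ U - St.pA := by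
    rw [Matrix.conjTranspose_sub, eU_star, St.pA_star, Matrix.sub_mul, Matrix.mul_sub, Matrix.mul_sub,
      eU_mul_self, St.eU_comm_pA.1, St.eU_comm_pA.2, St.pA_sq, sub_self, sub_zero]
  have hexp : nrm (c * dT χ U n) = (((Fintype.card A + 1 : ℕ) : ℝ) ^ 2)⁻¹ * nrm c +
      α * nrm (c * (eU χ U - St.pA)) + β * nrm (c * Q) := by
    rw [nrm, Matrix.conjTranspose_mul, dT_star, ← Matrix.mul_assoc, Matrix.mul_assoc c, hdec, Matrix.mul_add,
      Matrix.mul_add, Matrix.add_mul, Matrix.add_mul, Matrix.trace_add, Matrix.trace_add, Complex.add_re,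
      Complex.add_re, Matrix.mul_smul, Matrix.smul_mul, Matrix.trace_smul, Matrix.mul_smul, Matrix.smul_mul,
      Matrix.trace_smul, Matrix.mul_smul, Matrix.smul_mul, Matrix.trace_smul, hc, smul_eq_mul, smul_eq_mul,
      smul_eq_mul, Complex.re_ofReal_mul, Complex.re_ofReal_mul, nrm_smul_add hR, nrm_smul_add hQ]
    congr 2
    rw [show ((((Fintype.card A + 1 : ℕ) : ℂ) ^ 2)⁻¹) = ((((((Fintype.card A + 1 : ℕ) : ℝ) ^ 2)⁻¹ : ℝ)) : ℂ) by
      push_cast; ring, Complex.re_ofReal_mul]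
    rfl
  refine ⟨?_, fun heq => ?_⟩
  · rw [hexp]
    nlinarith [nrm_nonneg (c * (eU χ U - St.pA)), nrm_nonneg (c * Q), mul_nonneg hα (nrm_nonneg (c * (eU χ U - St.pA))),
      mul_nonneg hβ (nrm_nonneg (c * Q))]
  · have h2 : 2 ≤ Fintype.card A + 1 := by have := Fintype.card_pos (α := A); omega
    obtain ⟨hα', hβ'⟩ := hpos h2
    have h1 := mul_nonneg hα (nrm_nonneg (c * (eU χ U - St.pA)))
    have h3 := mul_nonneg hβ (nrm_nonneg (c * Q))
    have hz1 : nrm (c * (eU χ U - St.pA)) = 0 := by nlinarith [nrm_nonneg (c * (eU χ U - St.pA))]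
    have hz2 : nrm (c * Q) = 0 := by nlinarith [nrm_nonneg (c * Q)]
    have e1 := eq_zero_of_nrm hz1
    rw [Matrix.mul_sub, hc, sub_eq_zero] at e1
    refine ⟨e1.symm, ?_⟩
    have e2 := eq_zero_of_nrm hz2
    rw [hQe, Matrix.mul_smul, smul_eq_zero, Matrix.mul_add, Matrix.mul_smul, ← e1, ← St.pA_dT,
      ← Matrix.mul_assoc, ← e1] at e2
    have hne : ((Fintype.card A + 2 : ℕ) : ℂ)⁻¹ ≠ 0 := inv_ne_zero (Nat.cast_ne_zero.2 (by omega))
    have e3 := eq_neg_of_add_eq_zero_left (e2.resolve_left hne)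
    rw [← inv_smul_smul₀ (show ((Fintype.card A + 1 : ℕ) : ℂ) ≠ 0 from Nat.cast_ne_zero.2 (by omega))
      (c * dT χ U n), e3, smul_neg, neg_smul]

end CfsgLib.StUnique
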