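import Cfsg.Agent.CharBasics.Ortho
import Cfsg.Agent.CharBasics.Central
import Cfsg.Agent.CharBasics.Extra
import Mathlib.Analysis.Complex.Basic
import Mathlib.LinearAlgebra.Matrix.Trace

/-!
# The isotypic matrix representation of an irreducible character

For an irreducible character `χ` the maps `R g = L g * P` on `ℂ^G`, `L` the regular representation and
`P` the central projection of `χ`, form a unitary representation with trace `χ(1) χ`.
-/

set_option autoImplicit false
set_option linter.unusedSectionVars false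

namespace CfsgLib.StUnique

open Matrix Cfsg CfsgLib.CharBasics
open scoped ComplexConjugate

variable {G : Type*} [Group G] [Fintype G] [DecidableEq G]

/-- The regular representation. -/
def lreg (g : G) : Matrix G G ℂ := Matrix.of fun x y => if x = g * y then 1 else 0

theorem lreg_mul_apply (g : G) (M : Matrix G G ℂ) (x y : G) : (lreg g * M) x y = M (g⁻¹ * x) y := by
  rw [Matrix.mul_apply, Finset.sum_eq_single (g⁻¹ * x)]
  · simp [lreg]
  · intro z _ hz
    simp [lreg, show x ≠ g * z from fun h => hz (by rw [h, inv_mul_cancel_left])]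
  · simp

theorem mul_lreg_apply (g : G) (M : Matrix G G ℂ) (x y : G) : (M * lreg g) x y = M x (g * y) := by
  rw [Matrix.mul_apply, Finset.sum_eq_single (g * y)]
  · simp [lreg]
  · intro z _ hz
    simp [lreg, hz]
  · simp

theorem lreg_mul (g h : G) : lreg g * lreg h = lreg (g * h) := by
  ext x y
  rw [lreg_mul_apply]
  simp [lreg, inv_mul_eq_iff_eq_mul, mul_assoc]

theorem lreg_one : lreg (1 : G) = 1 := by
  ext x y
  simp [lreg, Matrix.one_apply]

theorem lreg_star (g : G) : (lreg g)ᴴ = lreg g⁻¹ := by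
  ext x y
  simp only [Matrix.conjTranspose_apply, lreg, Matrix.of_apply]
  by_cases h : y = g * x
  · simp [h]
  · simp [h, show x ≠ g⁻¹ * y from fun e => h (by rw [e, mul_inv_cancel_left])]

variable (χ : IrrCharacter G)

/-- The central projection. -/
noncomputable def proj : Matrix G G ℂ :=
  Matrix.of fun x y => (χ : G → ℂ) 1 / Nat.card G * (χ : G → ℂ) (y * x⁻¹)

theorem proj_comm (g : G) : lreg g * proj χ = proj χ * lreg g := by
  ext x y
  rw [lreg_mul_apply, mul_lreg_apply]
  simp only [proj, Matrix.of_apply]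
  rw [_root_.mul_inv_rev, inv_inv, ← mul_assoc y, apply_mul_comm (isCharacter_of_irr χ.2) (y * x⁻¹) g,
    mul_assoc]

theorem proj_star : (proj χ)ᴴ = proj χ := by
  ext x y
  simp only [Matrix.conjTranspose_apply, proj, Matrix.of_apply, ← starRingEnd_apply]
  rw [map_mul, map_div₀, apply_one (isCharacter_of_irr χ.2), Complex.conj_natCast, Complex.conj_natCast,
    ← apply_inv (isCharacter_of_irr χ.2), _root_.mul_inv_rev, inv_inv]

theorem proj_mul : proj χ * proj χ = proj χ := by
  classical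
  ext x y
  have h := conv_irr χ χ (y * x⁻¹)
  rw [if_pos rfl] at h
  have hG : (Nat.card G : ℂ) ≠ 0 := Nat.cast_ne_zero.2 Nat.card_pos.ne'
  have hs : ∑ z : G, (χ : G → ℂ) (z * x⁻¹) * (χ : G → ℂ) (y * z⁻¹) =
      ∑ b : G, (χ : G → ℂ) b * (χ : G → ℂ) (b⁻¹ * (y * x⁻¹)) := by
    refine Fintype.sum_equiv (Equiv.mulRight x⁻¹) _ _ fun z => ?_
    simp only [Equiv.coe_mulRight, _root_.mul_inv_rev, inv_inv]
    congr 1
    rw [apply_mul_comm (isCharacter_of_irr χ.2) (x * z⁻¹) (y * x⁻¹)]
    congr 1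
    group
  simp only [Matrix.mul_apply, proj, Matrix.of_apply]
  rw [Finset.sum_congr rfl fun z _ => (by ring :
    (χ : G → ℂ) 1 / Nat.card G * (χ : G → ℂ) (z * x⁻¹) * ((χ : G → ℂ) 1 / Nat.card G * (χ : G → ℂ) (y * z⁻¹)) =
      ((χ : G → ℂ) 1 / Nat.card G) * ((χ : G → ℂ) 1 / Nat.card G) *
        ((χ : G → ℂ) (z * x⁻¹) * (χ : G → ℂ) (y * z⁻¹))), ← Finset.mul_sum, hs, mul_assoc,
    div_mul_eq_mul_div ((χ : G → ℂ) 1) _ (∑ b : G, _), h, mul_div_assoc]
  field_simp

/-- The isotypic representation. -/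
noncomputable def rep (g : G) : Matrix G G ℂ := lreg g * proj χ

theorem rep_one : rep χ 1 = proj χ := by rw [rep, lreg_one, Matrix.one_mul]

theorem rep_mul (g h : G) : rep χ g * rep χ h = rep χ (g * h) := by
  rw [rep, rep, rep, ← lreg_mul, Matrix.mul_assoc, ← Matrix.mul_assoc (proj χ), ← proj_comm,
    Matrix.mul_assoc (lreg h), proj_mul, Matrix.mul_assoc]

theorem rep_star (g : G) : (rep χ g)ᴴ = rep χ g⁻¹ := by
  rw [rep, rep, Matrix.conjTranspose_mul, proj_star, lreg_star, proj_comm]

theorem trace_rep (g : G) : (rep χ g).trace = (χ : G → ℂ) 1 * (χ : G → ℂ) g := by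
  simp only [Matrix.trace, Matrix.diag, rep, lreg_mul_apply, proj, Matrix.of_apply, _root_.mul_inv_rev,
    inv_inv, mul_inv_cancel_left, Finset.sum_const, Finset.card_univ, ← Nat.card_eq_fintype_card, nsmul_eq_mul]
  have hG : (Nat.card G : ℂ) ≠ 0 := Nat.cast_ne_zero.2 Nat.card_pos.ne'
  field_simp

/-- The squared norm of a matrix. -/
noncomputable def nrm (a : Matrix G G ℂ) : ℝ := ((a * aᴴ).trace).re

theorem nrm_eq_sum (a : Matrix G G ℂ) : nrm a = ∑ x, ∑ y, Complex.normSq (a x y) := by
  rw [nrm, Matrix.trace, Complex.re_sum]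
  refine Finset.sum_congr rfl fun x _ => ?_
  rw [Matrix.diag, Matrix.mul_apply, Complex.re_sum]
  refine Finset.sum_congr rfl fun y _ => ?_
  rw [Matrix.conjTranspose_apply, ← starRingEnd_apply, Complex.mul_conj, Complex.ofReal_re]

theorem nrm_nonneg (a : Matrix G G ℂ) : 0 ≤ nrm a := by
  rw [nrm_eq_sum]
  exact Finset.sum_nonneg fun _ _ => Finset.sum_nonneg fun _ _ => Complex.normSq_nonneg _

theorem eq_zero_of_nrm {a : Matrix G G ℂ} (h : nrm a = 0) : a = 0 := by
  rw [nrm_eq_sum] at h
  ext x y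
  have h1 := (Finset.sum_eq_zero_iff_of_nonneg fun _ _ => Finset.sum_nonneg fun _ _ =>
    Complex.normSq_nonneg _).1 h x (Finset.mem_univ x)
  exact Complex.normSq_eq_zero.1
    ((Finset.sum_eq_zero_iff_of_nonneg fun _ _ => Complex.normSq_nonneg _).1 h1 y (Finset.mem_univ y))

end CfsgLib.StUnique
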