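import Cfsg.Agent.Chev.UniqueSt.Chevalley

/-!
# Uniqueness of the irreducible character that is regular on `U`
-/

set_option autoImplicit false
set_option linter.unusedSectionVars false

namespace CfsgLib.Chev.Sys

open Cfsg Cfsg.Lie CfsgLib.StUnique
open scoped ComplexConjugate

universe u

variable {D : ChevalleyDatum} (S : Sys.{u} D) (F : Type u) [Field F]

/-- A reduced word of a Weyl group element. -/
noncomputable def redWord (w : S.weylSet) : List ℕ :=
  (S.exists_reduced_weyl (S.mem_weylSet.1 w.2)).choose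

theorem redWord_spec (w : S.weylSet) : (∀ q ∈ S.redWord w, q < D.rank) ∧ S.wprod (S.redWord w) = w.1 ∧
    (S.redWord w).length = wlen w.1 :=
  (S.exists_reduced_weyl (S.mem_weylSet.1 w.2)).choose_spec

theorem redWord_reduced (w : S.weylSet) : (S.redWord w).length = wlen (S.wprod (S.redWord w)) := by
  rw [(S.redWord_spec w).2.1]; exact (S.redWord_spec w).2.2

/-- The normal form as a bijection. -/
theorem exists_cells [Finite F] :
    ∃ e : (Σ w : S.weylSet, D.borelSubgroup F × S.uminus F w.1) → D.group F, Function.Bijective e ∧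
      ∀ p, ((e p : D.group F) : GL D.Idx F) =
        (p.2.1 : GL D.Idx F) * S.nw F (S.redWord p.1) * p.2.2 := by
  have hacts : ∀ w : S.weylSet, S.Acts (S.nw F (S.redWord w)) w.1 := fun w => by
    have := S.acts_nw (F := F) (S.redWord_spec w).1
    rwa [(S.redWord_spec w).2.1] at this
  have hmono : ∀ w : S.weylSet, S.nw F (S.redWord w) ∈ D.monomialSubgroup F := fun w =>
    S.nw_mem_mono (S.redWord_spec w).1
  refine ⟨fun p => ⟨(p.2.1 : GL D.Idx F) * S.nw F (S.redWord p.1) * p.2.2, mul_mem (mul_mem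
    (S.borel_le_group p.2.1.2) (S.mono_le_group (hmono p.1))) (S.pos_le_group (S.genBy_le_pos _ p.2.2.2))⟩,
    ⟨fun p p' e => ?_, fun g => ?_⟩, fun p => rfl⟩
  · obtain ⟨w, b, x⟩ := p
    obtain ⟨w', b', x'⟩ := p'
    have e' : (b : GL D.Idx F) * S.nw F (S.redWord w) * x = b' * S.nw F (S.redWord w') * x' :=
      congrArg Subtype.val e
    have hU : ∀ {v : Equiv.Perm (Fin D.nroots)} (y : S.uminus F v),
        (y : GL D.Idx F) ∈ D.borelSubgroup F := fun y =>
      Subgroup.mem_sup_left (S.genBy_le_pos _ y.2)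
    have hd := S.cell_unique (hmono w) (hmono w') b.2 (hU x) b'.2 (hU x') e'
    have hww : (w : Equiv.Perm (Fin D.nroots)) = w' := by
      refine S.acts_unique ?_ (hacts w')
      have h := S.acts_mul (hacts w) (S.acts_diag hd)
      rwa [mul_inv_cancel_left, mul_one] at h
    obtain rfl : w = w' := Subtype.ext hww
    obtain ⟨h1, h2⟩ := S.normal_form_unique (hacts w) b.2 b'.2 x.2 x'.2 e'
    rw [Subtype.ext h1, Subtype.ext h2]
  · obtain ⟨b, hb, n, hn, w, hwW, hw, x, hx, e⟩ := S.exists_normal_form g.2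
    let w₀ : S.weylSet := ⟨w, S.mem_weylSet.2 hwW⟩
    have hd : n * (S.nw F (S.redWord w₀))⁻¹ ∈ D.diagonalSubgroup F := by
      obtain ⟨v, -, hv⟩ := S.exists_acts (Subgroup.inv_mem _ (hmono w₀))
      have hv1 : w * v = 1 := by
        refine S.acts_unique (S.acts_mul (hacts w₀) hv) ?_
        rw [mul_inv_cancel]
        exact S.acts_diag (Subgroup.one_mem _)
      refine S.mem_diag_of_pos (mul_mem hn (inv_mem (hmono w₀))) (S.acts_mul hw hv)
        fun r hr => ?_
      rw [hv1]; exact hr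
    refine ⟨⟨w₀, ⟨b * (n * (S.nw F (S.redWord w₀))⁻¹), mul_mem hb (Subgroup.mem_sup_right hd)⟩, ⟨x, hx⟩⟩,
      Subtype.ext ?_⟩
    show b * (n * (S.nw F (S.redWord w₀))⁻¹) * S.nw F (S.redWord w₀) * x = g
    rw [e]; group

/-- Multiplication by the longest element reverses the length. -/
theorem sum_weyl_flip (f : ℕ → ℝ) :
    ∑ w ∈ S.weylSet, f (wlen w) = ∑ w ∈ S.weylSet, f (D.nroots / 2 - wlen w) := by
  classical
  obtain ⟨L, hL, hlong⟩ := S.exists_longest
  have hlen : ∀ w : Equiv.Perm (Fin D.nroots), w ∈ S.weyl →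
      wlen (S.wprod L * w) + wlen w = D.nroots / 2 := by
    intro w hw
    have hset : invSet (S.wprod L * w) = posSet (D := D) \ invSet w := by
      ext s
      rw [Finset.mem_sdiff]
      show s ∈ Finset.filter _ _ ↔ s ∈ Finset.filter _ _ ∧ ¬ s ∈ Finset.filter _ _
      rw [Finset.mem_filter, Finset.mem_filter, Finset.mem_filter, Equiv.Perm.mul_apply]
      simp only [Finset.mem_univ, true_and]
      constructor
      · rintro ⟨h1, h2⟩
        refine ⟨h1, fun h => ?_⟩
        -- a negative root goes to a positive one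
        have hn : (D.neg (w s : Fin D.nroots) : ℕ) < D.nroots := S.neg_lt (w s).2
        have h3 := hlong ⟨_, hn⟩ (by
          show D.nroots / 2 ≤ D.neg (w s : Fin D.nroots)
          rw [S.neg_eq _ (w s).2]
          have := S.even_nroots
          omega)
        rw [S.wprod_neg hL (w s) _ rfl, S.neg_eq _ (Fin.is_lt _)] at h3
        have := S.even_nroots
        omega
      · rintro ⟨h1, h2⟩
        exact ⟨h1, hlong _ (not_lt.1 fun h => h2 ⟨h1, h⟩)⟩
    have hpos : (posSet (D := D)).card = D.nroots / 2 := by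
      rw [← Finset.card_image_of_injective _ Fin.val_injective, show (posSet (D := D)).image Fin.val =
          Finset.Ico (D.nroots / 2) D.nroots from by
        ext k
        simp only [posSet, Finset.mem_image, Finset.mem_filter, Finset.mem_univ, true_and, Finset.mem_Ico]
        exact ⟨fun ⟨s, hs, e⟩ => e ▸ ⟨hs, s.2⟩, fun ⟨h1, h2⟩ => ⟨⟨k, h2⟩, h1, rfl⟩⟩, Nat.card_Ico]
      have := S.even_nroots
      omega
    rw [wlen, hset, Finset.card_sdiff_of_subset (fun s hs => by
      simp only [invSet, posSet, Finset.mem_filter, Finset.mem_univ, true_and] at hs ⊢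
      exact hs.1), hpos, wlen]
    have : (invSet w).card ≤ D.nroots / 2 := by
      rw [← hpos]
      exact Finset.card_le_card fun s hs => by
        simp only [invSet, posSet, Finset.mem_filter, Finset.mem_univ, true_and] at hs ⊢
        exact hs.1
    omega
  refine Finset.sum_nbij' (fun w => S.wprod L * w) (fun w => (S.wprod L)⁻¹ * w) ?_ ?_ ?_ ?_ ?_
  · exact fun w hw => S.mem_weylSet.2 (mul_mem (S.wprod_mem_weyl L) (S.mem_weylSet.1 hw))
  · exact fun w hw => S.mem_weylSet.2 (mul_mem (inv_mem (S.wprod_mem_weyl L)) (S.mem_weylSet.1 hw))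
  · exact fun w _ => inv_mul_cancel_left _ _
  · exact fun w _ => mul_inv_cancel_left _ _
  · intro w hw
    have := hlen w (S.mem_weylSet.1 hw)
    congr 1
    omega

variable {F}
variable [Fintype F] [DecidableEq F] [Fintype (D.group F)] [DecidableEq (D.group F)] [Fintype (UG F S)]
variable (χ : IrrCharacter (D.group F))

theorem card_UG : Fintype.card (UG F S) = Nat.card F ^ (D.nroots / 2) := by
  rw [← Nat.card_eq_fintype_card, Nat.card_congr (Subgroup.subgroupOfEquivOfLe S.pos_le_group).toEquiv,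
    S.card_pos]

/-- At the fundamental reflections the operators are `-1/q`. -/
theorem simple_eq (hU : ∑ u : UG F S, (χ : D.group F → ℂ) (u : D.group F) = (χ : D.group F → ℂ) 1)
    {q : ℕ} (hq : q < D.rank) :
    (S.step χ hq).pA = eU χ (UG F S) ∧
      dT χ (UG F S) (S.nG F q) = (-(Fintype.card F : ℂ)⁻¹) • eU χ (UG F S) := by
  classical
  haveI := finite_GL (D := D) (F := F)
  obtain ⟨e, hbij, hcoe⟩ := S.exists_cells F
  haveI : ∀ w : S.weylSet, Fintype (D.borelSubgroup F × S.uminus F w.1) := fun w => Fintype.ofFinite _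
  set c : ℝ := (((Fintype.card F : ℕ) : ℝ) ^ 2)⁻¹ with hc
  set N := D.nroots / 2
  set Q : ℕ := Nat.card F with hQ
  have hQc : Fintype.card F = Q := Nat.card_eq_fintype_card.symm
  -- the operators are constant on cells
  have hcell : ∀ p, nrm (dT χ (UG F S) (e p)) = nrm (dT χ (UG F S) (S.nL F (S.redWord p.1))) := by
    rintro ⟨w, b, x⟩
    obtain ⟨h, hh, u, hu, hb⟩ := S.mem_borel_right b.2
    have hx : (x : GL D.Idx F) ∈ D.posUnipotent F := S.genBy_le_pos _ x.2
    have e1 : e ⟨w, b, x⟩ = (⟨h, S.diag_le_group hh⟩ : D.group F) *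
        ((⟨u, S.pos_le_group hu⟩ : D.group F) * (S.nL F (S.redWord w) * ⟨x, S.pos_le_group hx⟩)) := by
      refine Subtype.ext ?_
      rw [hcoe]
      push_cast
      rw [coe_nL, hb]
      simp only [mul_assoc]
    rw [e1, dT_torus_left χ (UG F S) (S.diag_norm_UG (h := ⟨h, S.diag_le_group hh⟩) hh),
      dT_left χ (UG F S) (S.mem_UG.2 hu), dT_right χ (UG F S) (S.mem_UG.2 hx)]
    simp only [nrm]
    rw [Matrix.conjTranspose_mul, dT_star, rep_star, ← Matrix.mul_assoc, Matrix.trace_mul_comm,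
      ← Matrix.mul_assoc, ← Matrix.mul_assoc, rep_mul, inv_mul_cancel, rep_one,
      show proj χ * dT χ (UG F S) (S.nL F (S.redWord w)) = dT χ (UG F S) (S.nL F (S.redWord w)) by
        rw [dT, ← Matrix.mul_assoc, ← Matrix.mul_assoc, proj_mul_eU]]
  have hsum : ∑ g : D.group F, nrm (dT χ (UG F S) g) = ∑ w : S.weylSet,
      ((Nat.card (D.diagonalSubgroup F) : ℝ) * (Q : ℝ) ^ N * (Q : ℝ) ^ wlen w.1) *
        nrm (dT χ (UG F S) (S.nL F (S.redWord w))) := by
    rw [← (Equiv.ofBijective e hbij).sum_comp, Fintype.sum_sigma]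
    refine Finset.sum_congr rfl fun w _ => ?_
    simp only [Equiv.ofBijective_apply, hcell, Finset.sum_const, Finset.card_univ, nsmul_eq_mul]
    congr 1
    rw [← Nat.card_eq_fintype_card, Nat.card_prod, S.card_borel,
      S.card_uminus (n := S.nw F (S.redWord w)) (w := w.1) (by
        have := S.acts_nw (F := F) (S.redWord_spec w).1
        rwa [(S.redWord_spec w).2.1] at this)]
    push_cast
    ring
  rw [S.sum_nrm χ hU] at hsum
  obtain ⟨hne, hnpos⟩ := S.nrm_eU χ hU
  have hH : 0 < (Nat.card (D.diagonalSubgroup F) : ℝ) := Nat.cast_pos.2 Nat.card_pos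
  have hQ0 : 0 < (Q : ℝ) := Nat.cast_pos.2 Nat.card_pos
  have hrhs : ∑ w : S.weylSet, ((Nat.card (D.diagonalSubgroup F) : ℝ) * (Q : ℝ) ^ N * (Q : ℝ) ^ wlen w.1) *
      (c ^ wlen w.1 * nrm (eU χ (UG F S))) =
      (Nat.card (D.group F) : ℝ) * ((charDegree (χ : D.group F → ℂ) : ℝ) ^ 2 / (Fintype.card (UG F S) : ℝ) ^ 2) := by
    have hflip := S.sum_weyl_flip (fun k => (Q : ℝ) ^ k)
    rw [Finset.sum_coe_sort S.weylSet fun w => ((Nat.card (D.diagonalSubgroup F) : ℝ) * (Q : ℝ) ^ N *
      (Q : ℝ) ^ wlen w) * (c ^ wlen w * nrm (eU χ (UG F S))), S.card_group, ← hQ, hne, S.card_UG, ← hQ]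
    push_cast
    rw [hflip, Finset.mul_sum, Finset.sum_mul]
    refine Finset.sum_congr rfl fun w hw => ?_
    have hle : wlen w ≤ N := by
      obtain ⟨L, hL, e'⟩ := S.exists_wprod (S.mem_weylSet.1 hw)
      rw [wlen]
      refine le_trans (Finset.card_le_card (s := invSet w) (t := (Finset.univ : Finset (Fin D.nroots)).filter
        fun s => D.nroots / 2 ≤ (s.val)) fun s hs => ?_) ?_
      · simp only [invSet, Finset.mem_filter, Finset.mem_univ, true_and] at hs ⊢
        exact hs.1
      · rw [← Finset.card_image_of_injective _ Fin.val_injective]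
        refine (Finset.card_le_card (t := Finset.Ico N D.nroots) fun k hk => ?_).trans ?_
        · simp only [Finset.mem_image, Finset.mem_filter, Finset.mem_univ, true_and, Finset.mem_Ico] at hk ⊢
          obtain ⟨s, hs, rfl⟩ := hk
          exact ⟨hs, s.2⟩
        · rw [Nat.card_Ico]
          have := S.even_nroots
          omega
    obtain ⟨r, hr⟩ := Nat.exists_eq_add_of_le hle
    rw [show D.nroots / 2 = wlen w + r from hr, hr, Nat.add_sub_cancel_left, hc, hQc, inv_pow, ← pow_mul]
    field_simp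
    ring
  -- every term attains the bound
  have hterm : ∀ w : S.weylSet, c ^ wlen w.1 * nrm (eU χ (UG F S)) =
      nrm (dT χ (UG F S) (S.nL F (S.redWord w))) := by
    intro w
    have hle : ∀ v : S.weylSet, c ^ wlen v.1 * nrm (eU χ (UG F S)) ≤
        nrm (dT χ (UG F S) (S.nL F (S.redWord v))) := fun v => by
      have := S.bound_word χ (S.redWord v) (S.redWord_spec v).1 (S.redWord_reduced v)
      rwa [(S.redWord_spec v).2.2, ← hc] at this
    have := (Finset.sum_eq_sum_iff_of_le fun v _ => mul_le_mul_of_nonneg_left (hle v)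
      (by positivity)).1 (hrhs.trans hsum) w (Finset.mem_univ w)
    exact mul_left_cancel₀ (by positivity) this
  -- the word of a fundamental reflection
  have hw1 : S.wprod [q] = S.refl q := by simp [wprod]
  set w : S.weylSet := ⟨S.refl q, S.mem_weylSet.2 (S.refl_mem_weyl q)⟩
  have hl1 : wlen (S.refl q) = 1 := by
    have h := S.wlen_mul_refl_of_pos (w := 1) (one_mem _) (i := ⟨q, hq⟩) (by
      rw [Equiv.Perm.one_apply]; exact S.sr_pos _)
    rwa [one_mul, S.wlen_one] at h
  obtain ⟨a, ha⟩ := List.length_eq_one_iff.1 ((S.redWord_spec w).2.2.trans hl1)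
  have haq : a = q := by
    obtain ⟨h1, h2, -⟩ := S.redWord_spec w
    rw [ha] at h1 h2
    have hra : a < D.rank := h1 a (by simp)
    have h2' : S.refl a = S.refl q := by simpa [wprod] using h2
    have h3 := congrArg (fun s : Fin D.nroots => (s : ℕ))
      (congrArg (fun σ : Equiv.Perm (Fin D.nroots) => σ ⟨D.simple q, S.simple_lt hq⟩) h2')
    simp only [S.refl_apply hra, S.refl_apply hq, S.pi_simple q hq] at h3
    by_contra hne'
    have h4 := S.pi_pos a hra _ (S.simple_lt hq) (S.simple_pos q hq).1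
      fun e => hne' (S.simple_inj hq hra e).symm
    rw [h3, S.neg_eq _ (S.simple_lt hq)] at h4
    have := (S.simple_pos q hq).1
    have := S.simple_lt hq
    have := S.even_nroots
    omega
  have hT := hterm w
  rw [show wlen w.1 = 1 from hl1, ha, haq, pow_one, show S.nL F [q] = S.nG F q by simp [nL]] at hT
  have hb := ((S.step χ hq).bound (eU_mul_self χ (UG F S)))
  rw [card_units_succ, eU_mul_dT, ← hc] at hb
  obtain ⟨h1, h2⟩ := hb.2 hT
  rw [(S.step χ hq).eU_comm_pA.1] at h1
  exact ⟨h1, by simpa using h2⟩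

/-- The torus is trivial on the fixed vectors. -/
theorem diag_eU (hU : ∑ u : UG F S, (χ : D.group F → ℂ) (u : D.group F) = (χ : D.group F → ℂ) 1)
    {h : D.group F} (hh : (h : GL D.Idx F) ∈ D.diagonalSubgroup F) :
    rep χ h * eU χ (UG F S) = eU χ (UG F S) := by
  let K : Subgroup (D.group F) :=
    { carrier := {g | rep χ g * eU χ (UG F S) = eU χ (UG F S)}
      one_mem' := by
        show rep χ 1 * _ = _
        rw [rep_one, proj_mul_eU]
      mul_mem' := fun {a b} ha hb => by
        show rep χ (a * b) * _ = _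
        rw [← rep_mul, Matrix.mul_assoc, show rep χ b * eU χ (UG F S) = _ from hb]
        exact ha
      inv_mem' := fun {a} ha => by
        show rep χ a⁻¹ * _ = _
        conv_lhs => rw [← (show rep χ a * eU χ (UG F S) = eU χ (UG F S) from ha)]
        rw [← Matrix.mul_assoc, rep_mul, inv_mul_cancel, rep_one, proj_mul_eU] }
  suffices hle : D.diagonalSubgroup F ≤ K.map (D.group F).subtype by
    obtain ⟨k, hk, e⟩ := Subgroup.mem_map.1 (hle hh)
    rw [← Subtype.ext e]
    exact hk
  rw [S.diagonalSubgroup_eq]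
  rintro g ⟨c, rfl⟩
  suffices hle : (⊤ : Subgroup (Fin D.rank → Fˣ)) ≤
      (K.map (D.group F).subtype).comap (S.dgHom.comp (torHom D)) from hle (Subgroup.mem_top c)
  rw [show (⊤ : Subgroup (Fin D.rank → Fˣ)) = Subgroup.pi Set.univ (fun _ => ⊤) by
    ext x; simp [Subgroup.mem_pi], Subgroup.pi_le_iff]
  rintro j _ ⟨d, -, rfl⟩
  refine Subgroup.mem_comap.2 (Subgroup.mem_map.2 ⟨S.etaG F j j.2 d, ?_, ?_⟩)
  · have h1 := (S.step χ j.2).rep_mul_pA d
    rw [(S.simple_eq χ hU j.2).1] at h1
    exact h1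
  · show S.dg (hz D (D.simple j) d) = _
    refine S.dg_congr fun i _ => ?_
    show _ = ∏ k : Fin D.rank, (Pi.mulSingle j d : Fin D.rank → Fˣ) k ^ _
    rw [Finset.prod_eq_single_of_mem j (Finset.mem_univ _)]
    · rw [Pi.mulSingle_eq_same, hz, S.cr_simple j.2]
    · intro k _ hk; rw [Pi.mulSingle_eq_of_ne hk, _root_.one_zpow]

/-- The character is a universal function times its degree. -/
theorem exists_universal : ∃ Φ : D.group F → ℂ, ∀ χ : IrrCharacter (D.group F),
    (∑ u : UG F S, (χ : D.group F → ℂ) (u : D.group F) = (χ : D.group F → ℂ) 1) →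
    ∀ x, (χ : D.group F → ℂ) x = (χ : D.group F → ℂ) 1 * Φ x := by
  classical
  obtain ⟨e, hbij, hcoe⟩ := S.exists_cells F
  let c : D.group F → ℂ := fun g =>
    (-(Fintype.card F : ℂ)⁻¹) ^ wlen ((Equiv.ofBijective e hbij).symm g).1.1
  refine ⟨fun x => (Nat.card (D.group F) : ℂ)⁻¹ * ∑ g : D.group F, c (g * x * g⁻¹), fun χ hU x => ?_⟩
  have hT : ∀ g : D.group F, dT χ (UG F S) g = c g • eU χ (UG F S) := by
    intro g
    obtain ⟨p, rfl⟩ := hbij.2 g
    simp only [c, Equiv.ofBijective_symm_apply_apply]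
    obtain ⟨w, b, x⟩ := p
    obtain ⟨h, hh, u, hu, hb⟩ := S.mem_borel_right b.2
    have hx : (x : GL D.Idx F) ∈ D.posUnipotent F := S.genBy_le_pos _ x.2
    have e1 : e ⟨w, b, x⟩ = (⟨h, S.diag_le_group hh⟩ : D.group F) *
        ((⟨u, S.pos_le_group hu⟩ : D.group F) * (S.nL F (S.redWord w) * ⟨x, S.pos_le_group hx⟩)) := by
      refine Subtype.ext ?_
      rw [hcoe]
      push_cast
      rw [coe_nL, hb]
      simp only [mul_assoc]
    rw [e1, dT_torus_left χ (UG F S) (S.diag_norm_UG (h := ⟨h, S.diag_le_group hh⟩) hh),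
      dT_left χ (UG F S) (S.mem_UG.2 hu), dT_right χ (UG F S) (S.mem_UG.2 hx),
      S.word_eq χ (fun q hq => (S.simple_eq χ hU hq).2) _ (S.redWord_spec w).1 (S.redWord_reduced w),
      Matrix.mul_smul, S.diag_eU χ hU (h := ⟨h, S.diag_le_group hh⟩) hh, (S.redWord_spec w).2.2]
  set d := (χ : D.group F → ℂ) 1 with hd
  have hd0 : d ≠ 0 := by
    rw [hd, CfsgLib.CharBasics.apply_one (CfsgLib.CharBasics.isCharacter_of_irr χ.2)]
    exact Nat.cast_ne_zero.2 (CfsgLib.CharBasics.charDegree_pos χ.2).ne'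
  have hU0 : (Fintype.card (UG F S) : ℂ) ≠ 0 := Nat.cast_ne_zero.2 Fintype.card_ne_zero
  have hG0 : (Nat.card (D.group F) : ℂ) ≠ 0 := Nat.cast_ne_zero.2 Nat.card_pos.ne'
  have h1 : ∑ g : D.group F, (dT χ (UG F S) (g * x * g⁻¹)).trace =
      (Fintype.card (UG F S) : ℂ)⁻¹ * ((Nat.card (D.group F) : ℂ) * (χ : D.group F → ℂ) x * d) := by
    have hone : ∀ y : D.group F, (dT χ (UG F S) y).trace = (Fintype.card (UG F S) : ℂ)⁻¹ *
        ∑ u : UG F S, d * (χ : D.group F → ℂ) (y * u) := fun y => by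
      rw [dT, Matrix.trace_mul_cycle, eU_mul_self, Matrix.trace_mul_comm, eU]
      simp only [Matrix.mul_smul, Finset.mul_sum, Matrix.trace_smul, Matrix.trace_sum, rep_mul, trace_rep,
        smul_eq_mul, ← hd]
    rw [Finset.sum_congr rfl fun g _ => hone _, ← Finset.mul_sum, Finset.sum_comm]
    congr 1
    rw [Finset.sum_congr rfl fun (u : UG F S) _ => show ∑ g : D.group F, d * (χ : D.group F → ℂ) (g * x * g⁻¹ * u) =
        (Nat.card (D.group F) : ℂ) * (χ : D.group F → ℂ) x * (χ : D.group F → ℂ) (u : D.group F) by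
      rw [← Finset.mul_sum, hd]
      exact CfsgLib.CharBasics.sum_conj_apply_mul χ.2 x (u : D.group F), ← Finset.mul_sum, hU]
  rw [Finset.sum_congr rfl fun g _ => by rw [hT, Matrix.trace_smul, smul_eq_mul, trace_eU χ (UG F S) hU, ← hd],
    ← Finset.sum_mul] at h1
  field_simp at h1 ⊢
  linear_combination -h1

end CfsgLib.Chev.Sys
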